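import Cfsg.Agent.Lib.Helper36.Gen2.Defs
import Cfsg.Agent.Lib.Helper36.StbB

set_option autoImplicit false

/-!
# GEN2 (S2405), package [B2]: the Chevalley group of type `B₂` over a finite field with more than two
elements is generated by two elements.
-/

namespace Cfsg.Agent.Lib.Helper65.Gen2

open Cfsg Cfsg.Lie Cfsg.Agent.Lib.Helper18 Cfsg.Agent.Lib.Helper17 Cfsg.Agent.Lib.Helper36

universe u

theorem b2_mem : chevB2 ∈ [chevG2, chevB2, chevD4, chevF4, chevE6, chevE7, chevE8] := by simp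

section

variable {F : Type u} [Field F]

/-- the root elements of `B₂` -/
noncomputable abbrev xB (r : ℕ) (t : F) : GL chevB2.Idx F := xU chevB2 b2_mem r t

theorem xB_add (r : ℕ) (hr : r < 8) (t u : F) : xB r t * xB r u = xB r (t + u) :=
  xU_mul_xU chevB2 b2_mem r hr t u

theorem xB_inv (r : ℕ) (t : F) : (xB r t)⁻¹ = xB r (-t) :=
  Cfsg.Agent.Lib.Helper17.xU_inv chevB2 b2_mem r t

theorem xB_zero (r : ℕ) : xB r (0 : F) = 1 :=
  Units.ext (by rw [coe_xU, Units.val_one]; exact Cfsg.Agent.S1024.x_zero chevB2 r)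

theorem xB_pow (r : ℕ) (hr : r < 8) (t : F) (n : ℕ) : xB r t ^ n = xB r (n * t) := by
  induction n with
  | zero => rw [pow_zero, Nat.cast_zero, zero_mul, xB_zero]
  | succ n ih =>
    rw [pow_succ, ih, xB_add r hr]
    congr 1
    push_cast
    ring

/-- commuting root groups: the commutator formula without terms -/
theorem xB_comm (r s : ℕ) (hr : r < 8) (hs : s < 8) (hsr : s ≠ r) (hsn : s ≠ chevB2.neg r)
    (hct : chevB2.commTerms r s = []) (t u : F) : xB s u * xB r t = xB r t * xB s u := by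
  have hcf := cf_of_mem (F := F) chevB2 b2_mem r s hr hs hsr hsn t u
  have hw : chevB2.wordMat F (chevB2.commWord F r s t u) = 1 := by
    unfold ChevalleyDatum.commWord ChevalleyDatum.wordMat
    rw [hct]
    simp
  rw [hw, mul_one] at hcf
  exact Units.ext (by simpa only [Units.val_mul, coe_xU] using hcf)

/-- the commutator formula for the roots `3` and `6` -/
theorem xB_cf36 (t u : F) :
    xB 6 u * xB 3 t = xB 3 t * xB 6 u * (xB 5 (-t * u) * xB 7 (-t * u ^ 2)) := by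
  have hcf := cf_of_mem (F := F) chevB2 b2_mem 3 6 (by decide) (by decide) (by decide)
    (by decide) t u
  have hct : chevB2.commTerms 3 6 = [(5, 1, 1, 1), (7, 1, 1, 2)] := by decide
  have hw : chevB2.wordMat F (chevB2.commWord F 3 6 t u) =
      chevB2.x F 5 (-t * u) * chevB2.x F 7 (-t * u ^ 2) := by
    unfold ChevalleyDatum.commWord ChevalleyDatum.wordMat
    rw [hct]
    simp
  rw [hw] at hcf
  exact Units.ext (by simpa only [Units.val_mul, coe_xU] using hcf)

/-- the torus element `h_{p₂}(ζ)` -/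
noncomputable def hT (ζ : F) : GL chevB2.Idx F :=
  wordU chevB2 b2_mem (chevB2.hWord (chevB2.simple 1) ζ)

theorem coe_hT (ζ : F) :
    ((hT ζ : GL chevB2.Idx F) : Matrix chevB2.Idx chevB2.Idx F) =
      chevB2.hMat F (chevB2.simple 1) ζ := by
  rw [hT, coe_wordU]
  rfl

theorem hT_mem (ζ : F) : hT ζ ∈ chevB2.group F := wordU_mem_group chevB2 b2_mem _

theorem hT_conj (ζ : F) (hζ : ζ ≠ 0) (s : ℕ) (hs : s < 8) (t : F) :
    hT ζ * xB s t = xB s (ζ ^ (chevB2.cartan 1 s) * t) * hT ζ :=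
  Units.ext (by
    simp only [Units.val_mul, coe_xU, coe_hT]
    exact Cfsg.Agent.S1032.result chevB2 b2_mem 1 s (by decide) hs ζ hζ t)

theorem hT_pow (ζ : F) (hζ : ζ ≠ 0) (N : ℕ) (hN : ζ ^ N = 1) : hT ζ ^ N = 1 := by
  apply Units.ext
  rw [Units.val_pow_eq_pow_val, coe_hT,
    Cfsg.Agent.S1033.result chevB2 b2_mem 1 (by decide) ζ hζ, Matrix.diagonal_pow,
    Units.val_one, ← Matrix.diagonal_one]
  congr 1
  funext i
  rcases i with i | s
  · simp
  · simp only [Pi.pow_apply, Sum.elim_inr]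
    rw [← zpow_natCast, ← zpow_mul, mul_comm, zpow_mul, zpow_natCast, hN, one_zpow]

/-- the Coxeter element -/
noncomputable abbrev bC : GL chevB2.Idx F :=
  nW (F := F) chevB2 b2_mem ([0, 1] : List (Fin 2))

/-- conjugation by the Coxeter element moves full root groups -/
theorem bC_conj (K : Subgroup (GL chevB2.Idx F)) (hb : (bC : GL chevB2.Idx F) ∈ K) (r : ℕ)
    (hr : r < 8) (h : ∀ t : F, xB r t ∈ K) (t : F) :
    xB (wordF chevB2 ([0, 1] : List (Fin 2)) r) t ∈ K := by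
  obtain ⟨ε, hε⟩ := word_smap (F := F) chevB2 b2_mem ([0, 1] : List (Fin 2))
  have e1 := hε.conjU b2_mem r hr (ε r * t)
  have hsq : ε r * (ε r * t) = t := by
    rcases hε.sign r hr with h | h <;> rw [h] <;> simp
  rw [hsq] at e1
  have e2 : xB (wordF chevB2 ([0, 1] : List (Fin 2)) r) t =
      bC * xB r (ε r * t) * (bC)⁻¹ := by
    show _ = (([0, 1] : List (Fin 2)).map (nU (F := F) chevB2 b2_mem)).prod * xB r (ε r * t) *
      ((([0, 1] : List (Fin 2)).map (nU (F := F) chevB2 b2_mem)).prod)⁻¹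
    rw [e1]
    group
  rw [e2]
  exact K.mul_mem (K.mul_mem hb (h _)) (K.inv_mem hb)

/-- conjugation by the Coxeter element moves `x_r(1)` to `x_{w r}(±1)` -/
theorem bC_conj_one (K : Subgroup (GL chevB2.Idx F)) (hb : (bC : GL chevB2.Idx F) ∈ K) (r : ℕ)
    (hr : r < 8) (h : xB r (1 : F) ∈ K) :
    xB (wordF chevB2 ([0, 1] : List (Fin 2)) r) (1 : F) ∈ K := by
  obtain ⟨ε, hε⟩ := word_smap (F := F) chevB2 b2_mem ([0, 1] : List (Fin 2))
  have e1 := hε.conjU b2_mem r hr 1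
  have e2 : xB (wordF chevB2 ([0, 1] : List (Fin 2)) r) (ε r * 1) =
      bC * xB r 1 * (bC)⁻¹ := by
    show _ = (([0, 1] : List (Fin 2)).map (nU (F := F) chevB2 b2_mem)).prod * xB r 1 *
      ((([0, 1] : List (Fin 2)).map (nU (F := F) chevB2 b2_mem)).prod)⁻¹
    rw [e1]
    group
  have e3 : xB (wordF chevB2 ([0, 1] : List (Fin 2)) r) (ε r * 1) ∈ K := by
    rw [e2]
    exact K.mul_mem (K.mul_mem hb h) (K.inv_mem hb)
  rcases hε.sign r hr with h1 | h1
  · rw [h1, one_mul] at e3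
    exact e3
  · rw [h1, mul_one] at e3
    have := K.inv_mem e3
    rwa [xB_inv, neg_neg] at this

/-- [B2]: the Chevalley group of type `B₂` over a finite field with more than two elements is
generated by two elements. -/
theorem pkgB2 : Cfsg.Agent.Lib.Helper36.Gen2.PkgB2.{u} := by
  intro F _ _ hx
  obtain ⟨x0, hx0, hx1⟩ := hx
  classical
  have hfin : Fintype F := Fintype.ofFinite F
  -- a generator of the multiplicative group
  obtain ⟨ζu, hζu⟩ := IsCyclic.exists_generator (α := Fˣ)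
  obtain ⟨ζ, hζdef⟩ : ∃ ζ : F, ζ = (ζu : F) := ⟨_, rfl⟩
  have hζ0 : ζ ≠ 0 := by rw [hζdef]; exact ζu.ne_zero
  have hpow : ∀ s : F, s ≠ 0 → ∃ k : ℕ, ζ ^ k = s := by
    intro s hs
    have h2 := hζu (Units.mk0 s hs)
    rw [← mem_powers_iff_mem_zpowers] at h2
    obtain ⟨k, hk⟩ := h2
    refine ⟨k, ?_⟩
    have h3 := congrArg Units.val hk
    rw [hζdef]
    simpa using h3
  have hζ1 : ζ ≠ 1 := by
    intro h1
    obtain ⟨k, hk⟩ := hpow x0 hx0
    rw [h1, one_pow] at hk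
    exact hx1 hk.symm
  obtain ⟨N, hNdef⟩ : ∃ N : ℕ, N = Fintype.card F - 1 := ⟨_, rfl⟩
  have hζN : ζ ^ N = 1 := by
    rw [hNdef]
    exact FiniteField.pow_card_sub_one_eq_one ζ hζ0
  have hNF : (N : F) = -1 := by
    rw [hNdef, Nat.cast_sub Fintype.card_pos, FiniteField.cast_card_eq_zero]
    simp
  obtain ⟨h, hhdef⟩ : ∃ h : GL chevB2.Idx F, h = hT ζ := ⟨_, rfl⟩
  obtain ⟨b, hbdef⟩ : ∃ b : GL chevB2.Idx F, b = bC := ⟨_, rfl⟩
  obtain ⟨c', hc'def⟩ : ∃ c' : GL chevB2.Idx F, c' = h * xB 6 1 := ⟨_, rfl⟩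
  obtain ⟨a, hadef⟩ : ∃ a : GL chevB2.Idx F, a = h * xB 7 1 * xB 6 1 := ⟨_, rfl⟩
  have hh7 : ∀ t : F, h * xB 7 t = xB 7 t * h := by
    intro t
    have := hT_conj ζ hζ0 7 (by decide) t
    rwa [show chevB2.cartan 1 7 = 0 from by decide, zpow_zero, one_mul, ← hhdef] at this
  have hh6 : ∀ t : F, h * xB 6 t = xB 6 (ζ * t) * h := by
    intro t
    have := hT_conj ζ hζ0 6 (by decide) t
    rwa [show chevB2.cartan 1 6 = 1 from by decide, zpow_one, ← hhdef] at this
  have hh4 : ∀ t : F, h * xB 4 t = xB 4 (ζ ^ 2 * t) * h := by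
    intro t
    have := hT_conj ζ hζ0 4 (by decide) t
    rw [show chevB2.cartan 1 4 = 2 from by decide, ← hhdef] at this
    rw [this]
    norm_cast
  have hh3 : ∀ t : F, h * xB 3 (ζ ^ 2 * t) = xB 3 t * h := by
    intro t
    have := hT_conj ζ hζ0 3 (by decide) (ζ ^ 2 * t)
    rw [show chevB2.cartan 1 3 = -2 from by decide, ← hhdef] at this
    rw [this]
    congr 2
    rw [zpow_neg, ← mul_assoc]
    have : (ζ ^ (2 : ℤ))⁻¹ * ζ ^ 2 = 1 := by
      norm_cast
      exact inv_mul_cancel₀ (pow_ne_zero 2 hζ0)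
    rw [this, one_mul]
  have h76 : ∀ t u : F, xB 7 u * xB 6 t = xB 6 t * xB 7 u :=
    xB_comm 6 7 (by decide) (by decide) (by decide) (by decide) (by decide)
  have h64 : ∀ t u : F, xB 6 u * xB 4 t = xB 4 t * xB 6 u :=
    xB_comm 4 6 (by decide) (by decide) (by decide) (by decide) (by decide)
  refine ⟨a, b, ?_, ?_, ?_⟩
  · rw [hadef, hhdef]
    exact mul_mem (mul_mem (hT_mem ζ) (xU_mem_group _ _ _ _)) (xU_mem_group _ _ _ _)
  · rw [hbdef]
    exact nW_mem_group chevB2 b2_mem _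
  obtain ⟨K, hKdef⟩ : ∃ K : Subgroup (GL chevB2.Idx F),
      K = Subgroup.closure ({a, b} : Set (GL chevB2.Idx F)) := ⟨_, rfl⟩
  rw [← hKdef]
  have haK : a ∈ K := by rw [hKdef]; exact Subgroup.subset_closure (by simp)
  have hbK : (bC : GL chevB2.Idx F) ∈ K := by
    rw [hKdef, ← hbdef]; exact Subgroup.subset_closure (by simp)
  -- step 1: `x_7(1)` and `c'` lie in `K`
  have ha_eq : a = xB 7 1 * c' := by rw [hadef, hc'def, hh7, mul_assoc]
  have hcomm : Commute (xB 7 (1 : F)) c' := by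
    show xB 7 1 * c' = c' * xB 7 1
    rw [hc'def, ← mul_assoc, ← hh7, mul_assoc, h76, mul_assoc]
  have hc'N : c' ^ N = 1 := by
    have h1z : (1 : F) - ζ ≠ 0 := sub_ne_zero.mpr (Ne.symm hζ1)
    have hg : c' = xB 6 (ζ / (1 - ζ)) * h * (xB 6 (ζ / (1 - ζ)))⁻¹ := by
      rw [xB_inv, mul_assoc, hh6, ← mul_assoc, xB_add 6 (by decide), hc'def, hh6]
      congr 2
      field_simp
      ring
    rw [hg, conj_pow, hhdef, hT_pow ζ hζ0 N hζN, mul_one, mul_inv_cancel]
  have haN : a ^ N = xB 7 (-1) := by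
    rw [ha_eq, hcomm.mul_pow, hc'N, mul_one, xB_pow 7 (by decide), hNF, mul_one]
  have hX71 : xB 7 (1 : F) ∈ K := by
    have h1 := K.pow_mem haK N
    rw [haN] at h1
    have h2 := K.inv_mem h1
    rwa [xB_inv, neg_neg] at h2
  have hc'K : c' ∈ K := by
    have h1 : c' = (xB 7 1)⁻¹ * a := by rw [ha_eq]; group
    rw [h1]
    exact K.mul_mem (K.inv_mem hX71) haK
  -- step 2: the long root group `X_4`
  have hX4one : xB 4 (1 : F) ∈ K := by
    have := bC_conj_one K hbK 7 (by decide) hX71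
    rwa [show wordF chevB2 ([0, 1] : List (Fin 2)) 7 = 4 from by decide] at this
  have hX4mul : ∀ t : F, xB 4 t ∈ K → xB 4 (ζ ^ 2 * t) ∈ K := by
    intro t ht
    have h1 : xB 4 (ζ ^ 2 * t) = c' * xB 4 t * c'⁻¹ := by
      rw [hc'def, mul_assoc h, h64, ← mul_assoc h, hh4]
      group
    rw [h1]
    exact K.mul_mem (K.mul_mem hc'K ht) (K.inv_mem hc'K)
  have hX4pow : ∀ k : ℕ, xB 4 ((ζ ^ 2) ^ k) ∈ K := by
    intro k
    induction k with
    | zero => simpa using hX4one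
    | succ k ih =>
      have := hX4mul _ ih
      rwa [← pow_succ'] at this
  have hX4sq : ∀ s : F, xB 4 (s ^ 2) ∈ K := by
    intro s
    by_cases hs : s = 0
    · rw [hs, zero_pow two_ne_zero, xB_zero]
      exact K.one_mem
    · obtain ⟨k, rfl⟩ := hpow s hs
      have := hX4pow k
      rwa [← pow_mul, mul_comm, pow_mul] at this
  have hX4 : ∀ t : F, xB 4 t ∈ K := by
    intro t
    by_cases h2 : ringChar F = 2
    · obtain ⟨s, hs⟩ := FiniteField.isSquare_of_char_two h2 t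
      rw [hs, ← sq]
      exact hX4sq s
    · have h2' : (2 : F) ≠ 0 := Ring.two_ne_zero h2
      have h3 : t = ((t + 1) / 2) ^ 2 + -(((t - 1) / 2) ^ 2) := by
        field_simp
        ring
      rw [h3, ← xB_add 4 (by decide), ← xB_inv]
      exact K.mul_mem (hX4sq _) (K.inv_mem (hX4sq _))
  -- the long root groups
  have hX0 : ∀ t : F, xB 0 t ∈ K := by
    intro t
    have := bC_conj K hbK 4 (by decide) hX4 t
    rwa [show wordF chevB2 ([0, 1] : List (Fin 2)) 4 = 0 from by decide] at this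
  have hX3 : ∀ t : F, xB 3 t ∈ K := by
    intro t
    have := bC_conj K hbK 0 (by decide) hX0 t
    rwa [show wordF chevB2 ([0, 1] : List (Fin 2)) 0 = 3 from by decide] at this
  have hX7 : ∀ t : F, xB 7 t ∈ K := by
    intro t
    have := bC_conj K hbK 3 (by decide) hX3 t
    rwa [show wordF chevB2 ([0, 1] : List (Fin 2)) 3 = 7 from by decide] at this
  -- step 3: the short root groups
  have hZ : ∀ s : F, (xB 6 (1 : F))⁻¹ * xB 3 s * xB 6 1 ∈ K := by
    intro s
    have h1 : (xB 6 (1 : F))⁻¹ * xB 3 s * xB 6 1 = c'⁻¹ * xB 3 (s / ζ ^ 2) * c' := by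
      have h2 : xB 3 s = h⁻¹ * xB 3 (s / ζ ^ 2) * h := by
        have h3 := hh3 (s / ζ ^ 2)
        have e : ζ ^ 2 * (s / ζ ^ 2) = s := by
          field_simp
        rw [e] at h3
        rw [mul_assoc, ← h3]
        group
      rw [hc'def, h2]
      group
    rw [h1]
    exact K.mul_mem (K.mul_mem (K.inv_mem hc'K) (hX3 _)) hc'K
  have hX5 : ∀ t : F, xB 5 t ∈ K := by
    intro t
    have hcf := xB_cf36 (-t) (1 : F)
    rw [neg_neg, mul_one, one_pow, mul_one] at hcf
    have h1 : xB 5 t = (xB 6 (1 : F))⁻¹ * xB 3 t * xB 6 1 * xB 3 (-t) * (xB 7 t)⁻¹ := by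
      have h2 : xB 3 t = (xB 3 (-t))⁻¹ := by rw [xB_inv, neg_neg]
      rw [h2, mul_assoc ((xB 6 (1 : F))⁻¹ * (xB 3 (-t))⁻¹), hcf]
      group
    rw [h1]
    exact K.mul_mem (K.mul_mem (hZ t) (hX3 _)) (K.inv_mem (hX7 t))
  have hX6 : ∀ t : F, xB 6 t ∈ K := by
    intro t
    have := bC_conj K hbK 5 (by decide) hX5 t
    rwa [show wordF chevB2 ([0, 1] : List (Fin 2)) 5 = 6 from by decide] at this
  have hX2 : ∀ t : F, xB 2 t ∈ K := by
    intro t
    have := bC_conj K hbK 6 (by decide) hX6 t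
    rwa [show wordF chevB2 ([0, 1] : List (Fin 2)) 6 = 2 from by decide] at this
  have hX1 : ∀ t : F, xB 1 t ∈ K := by
    intro t
    have := bC_conj K hbK 2 (by decide) hX2 t
    rwa [show wordF chevB2 ([0, 1] : List (Fin 2)) 2 = 1 from by decide] at this
  -- step 4: all root elements lie in `K`
  unfold ChevalleyDatum.group
  rw [Subgroup.closure_le]
  rintro g ⟨r, t, hg⟩
  have hgx : g = xB r.1 t := Units.ext (by
    rw [hg, coe_xU]; simp [ChevalleyDatum.x, r.2])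
  rw [hgx]
  obtain ⟨r, hr⟩ := r
  have hr8 : r < 8 := hr
  show xB r t ∈ K
  interval_cases r
  · exact hX0 t
  · exact hX1 t
  · exact hX2 t
  · exact hX3 t
  · exact hX4 t
  · exact hX5 t
  · exact hX6 t
  · exact hX7 t

example : Cfsg.Agent.Lib.Helper36.Gen2.PkgB2.{0} := pkgB2
example : Cfsg.Agent.Lib.Helper36.Gen2.PkgB2.{3} := pkgB2

end

end Cfsg.Agent.Lib.Helper65.Gen2
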